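import Cfsg.Prelude.Def_RootSubgroups

/-! Elements with the same fixed space and commutator space as a minimal quadratic element. -/

set_option autoImplicit false

namespace Cfsg.Agent.Quad

open Cfsg

variable {k : Type*} [Field k] {M : Type*} [AddCommGroup M] [Module k M]

local notation "GL'" => LinearMap.GeneralLinearGroup k M

/-- The nilpotent part. -/
def dev (σ : GL') : M →ₗ[k] M := (σ : M →ₗ[k] M) - 1

theorem val_eq (σ : GL') : (σ : M →ₗ[k] M) = 1 + dev σ := by rw [dev]; abel

theorem dev_eq_zero {σ : GL'} : dev σ = 0 ↔ σ = 1 := by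
  rw [dev, sub_eq_zero]
  exact ⟨fun h => Units.ext h, fun h => by rw [h]; rfl⟩

theorem dev_mul_zero {G : Subgroup GL'} {σ a b : GL'} (ha : a ∈ sameActionClass G σ)
    (hb : b ∈ sameActionClass G σ) : dev a * dev b = 0 := by
  ext m
  have h1 : dev b m ∈ LinearMap.range (dev σ) := hb.2.2 ▸ LinearMap.mem_range_self (dev b) m
  rw [show LinearMap.range (dev σ) = LinearMap.range (dev a) from ha.2.2.symm] at h1
  obtain ⟨m', hm'⟩ := h1
  show dev a (dev b m) = 0
  rw [← hm']
  exact LinearMap.congr_fun ha.1.1.2.1.1 m'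

theorem val_scalar {G : Subgroup GL'} {σ : GL'} (h : σ ∈ quadraticElements G) (c : k) :
    ∃ τ ∈ G, (τ : M →ₗ[k] M) = 1 + c • dev σ := by
  have hsq : dev σ * dev σ = 0 := h.2.1.1
  have hprod : ∀ a : k, (1 + a • dev σ) * (1 + (-a) • dev σ) = 1 := fun a => by
    simp only [mul_add, add_mul, mul_one, one_mul, smul_mul_smul_comm, hsq, smul_zero, add_zero]
    rw [neg_smul]; abel
  refine ⟨⟨1 + c • dev σ, 1 + (-c) • dev σ, hprod c, by simpa using hprod (-c)⟩, h.2.2 ⟨c, rfl⟩, rfl⟩

variable [FiniteDimensional k M]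

/-- Products of members are members or trivial. -/
theorem mem_class_of {G : Subgroup GL'} {σ x : GL'} (hσ : σ ∈ minimalQuadraticElements G)
    (hx : x ≠ 1) (hsq : dev x * dev x = 0)
    (hfam : scalarFamily x ⊆ (G : Set GL'))
    (hker : LinearMap.ker (dev σ) ≤ LinearMap.ker (dev x))
    (hran : LinearMap.range (dev x) ≤ LinearMap.range (dev σ)) : x ∈ sameActionClass G σ := by
  have hxG : x ∈ G := hfam ⟨1, by rw [one_smul]; exact val_eq x⟩
  have hq : x ∈ quadraticElements G := ⟨hxG, ⟨hsq, fun e => hx (dev_eq_zero.1 e)⟩, hfam⟩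
  have hle : commutatorRank σ ≤ commutatorRank x := hσ.2 x hq
  have heq : LinearMap.range (dev x) = LinearMap.range (dev σ) :=
    Submodule.eq_of_le_of_finrank_le hran hle
  have hker' : LinearMap.ker (dev σ) = LinearMap.ker (dev x) := by
    refine Submodule.eq_of_le_of_finrank_le hker ?_
    have h1 := LinearMap.finrank_range_add_finrank_ker (dev x)
    have h2 := LinearMap.finrank_range_add_finrank_ker (dev σ)
    rw [heq] at h1
    omega
  refine ⟨⟨hq, fun τ hτ => le_trans (le_of_eq ?_) (hσ.2 τ hτ)⟩, hker'.symm, heq⟩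
  show Module.finrank k (LinearMap.range (dev x)) = Module.finrank k (LinearMap.range (dev σ))
  rw [heq]

theorem sameAction_structure {G : Subgroup GL'} {σ : GL'} (hσ : σ ∈ minimalQuadraticElements G) :
    (sameActionSubgroup G σ : Set GL') = sameActionClass G σ ∪ {1} ∧
    IsMulCommutative ↥(sameActionSubgroup G σ) ∧
    (∀ p : ℕ, p.Prime → ringChar k = p → ∀ x ∈ sameActionSubgroup G σ, x ^ p = 1) := by
  classical
  have hzero : ∀ a ∈ sameActionClass G σ ∪ {1}, ∀ b ∈ sameActionClass G σ ∪ {1}, dev a * dev b = 0 := by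
    rintro a (ha | ha) b (hb | hb)
    · exact dev_mul_zero ha hb
    all_goals first
      | (rw [dev_eq_zero.2 (Set.mem_singleton_iff.1 ha), zero_mul])
      | (rw [dev_eq_zero.2 (Set.mem_singleton_iff.1 hb), mul_zero])
  have hfam : ∀ a ∈ sameActionClass G σ ∪ {1}, ∀ c : k, ∃ τ ∈ G, (τ : M →ₗ[k] M) = 1 + c • dev a := by
    rintro a (ha | ha) c
    · exact val_scalar ha.1.1 c
    · exact ⟨1, one_mem _, by rw [dev_eq_zero.2 (Set.mem_singleton_iff.1 ha), smul_zero, add_zero]; rfl⟩
  have hker : ∀ a ∈ sameActionClass G σ ∪ {1}, LinearMap.ker (dev σ) ≤ LinearMap.ker (dev a) := by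
    rintro a (ha | ha)
    · exact le_of_eq ha.2.1.symm
    · rw [dev_eq_zero.2 (Set.mem_singleton_iff.1 ha), LinearMap.ker_zero]; exact le_top
  have hran : ∀ a ∈ sameActionClass G σ ∪ {1}, LinearMap.range (dev a) ≤ LinearMap.range (dev σ) := by
    rintro a (ha | ha)
    · exact le_of_eq ha.2.2
    · rw [dev_eq_zero.2 (Set.mem_singleton_iff.1 ha), LinearMap.range_zero]; exact bot_le
  have hdev : ∀ a ∈ sameActionClass G σ ∪ {1}, ∀ b ∈ sameActionClass G σ ∪ {1},
      dev (a * b) = dev a + dev b := by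
    intro a ha b hb
    rw [show dev (a * b) = ((a : M →ₗ[k] M) * (b : M →ₗ[k] M)) - 1 from rfl, val_eq a, val_eq b, mul_add,
      add_mul, add_mul, one_mul, one_mul, mul_one, hzero a ha b hb]
    abel
  have hmul : ∀ a ∈ sameActionClass G σ ∪ {1}, ∀ b ∈ sameActionClass G σ ∪ {1},
      a * b ∈ sameActionClass G σ ∪ {1} := by
    intro a ha b hb
    by_cases h1 : a * b = 1
    · exact Or.inr h1
    refine Or.inl (mem_class_of hσ h1 ?_ ?_ ?_ ?_)
    · rw [hdev a ha b hb, mul_add, add_mul, add_mul, hzero a ha a ha, hzero b hb a ha, hzero a ha b hb,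
        hzero b hb b hb]
      simp
    · rintro τ ⟨c, hc⟩
      obtain ⟨s, hs, hse⟩ := hfam a ha c
      obtain ⟨t, ht, hte⟩ := hfam b hb c
      have : τ = s * t := Units.ext (by
        rw [hc, show (↑(a * b) : M →ₗ[k] M) - 1 = dev (a * b) from rfl,
          hdev a ha b hb, Units.val_mul, hse, hte, mul_add, add_mul, add_mul, one_mul, one_mul, mul_one, smul_mul_smul_comm,
          hzero a ha b hb, smul_zero, add_zero, smul_add]
        abel)
      rw [this]; exact mul_mem hs ht
    · intro m hm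
      rw [LinearMap.mem_ker, hdev a ha b hb, LinearMap.add_apply, LinearMap.mem_ker.1 (hker a ha hm),
        LinearMap.mem_ker.1 (hker b hb hm), add_zero]
    · rw [hdev a ha b hb]
      rintro _ ⟨m, rfl⟩
      exact add_mem (hran a ha (LinearMap.mem_range_self _ m)) (hran b hb (LinearMap.mem_range_self _ m))
  have hinv : ∀ a ∈ sameActionClass G σ, a⁻¹ ∈ sameActionClass G σ := by
    intro a ha
    have hd : dev a⁻¹ = -dev a := by
      have hu : ((a⁻¹ : GL') : M →ₗ[k] M) = 1 - dev a := by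
        refine Units.inv_eq_of_mul_eq_one_right ?_
        rw [val_eq a]
        simp only [mul_sub, add_mul, mul_one, one_mul, dev_mul_zero ha ha]
        abel
      rw [show dev a⁻¹ = ((a⁻¹ : GL') : M →ₗ[k] M) - 1 from rfl, hu]
      abel
    refine mem_class_of hσ (fun e => ha.1.1.2.1.2 (dev_eq_zero.2 (inv_eq_one.1 e))) ?_ ?_ ?_ ?_
    · rw [hd, neg_mul_neg, dev_mul_zero ha ha]
    · rintro τ ⟨c, hc⟩
      obtain ⟨s, hs, hse⟩ := val_scalar ha.1.1 (-c)
      have : τ = s := Units.ext (by
        rw [hc, hse, show (↑(a⁻¹) : M →ₗ[k] M) - 1 = dev a⁻¹ from rfl, hd, smul_neg, neg_smul])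
      rw [this]; exact hs
    · rw [hd]; intro m hm
      rw [LinearMap.mem_ker, LinearMap.neg_apply, LinearMap.mem_ker.1 (hker a (Or.inl ha) hm), neg_zero]
    · rw [hd, LinearMap.range_neg]; exact le_of_eq ha.2.2
  let S : Subgroup GL' :=
    { carrier := sameActionClass G σ ∪ {1}
      one_mem' := Or.inr rfl
      mul_mem' := fun {a b} ha hb => hmul a ha b hb
      inv_mem' := fun {a} ha => ha.elim (fun h => Or.inl (hinv a h)) (fun h => Or.inr (by
        rw [Set.mem_singleton_iff.1 h]; exact inv_one)) }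
  have hS : sameActionSubgroup G σ = S :=
    le_antisymm ((Subgroup.closure_le _).2 fun x hx => Or.inl hx)
      (fun x hx => hx.elim (fun h => Subgroup.subset_closure h)
        (fun h => (Set.mem_singleton_iff.1 h) ▸ one_mem _))
  refine ⟨congrArg SetLike.coe hS, ?_, fun p _ hp x hx => ?_⟩
  · rw [hS]
    refine ⟨⟨fun a b => Subtype.ext (Units.ext ?_)⟩⟩
    show (a.1 : M →ₗ[k] M) * (b.1 : M →ₗ[k] M) = (b.1 : M →ₗ[k] M) * (a.1 : M →ₗ[k] M)
    rw [val_eq a.1, val_eq b.1, mul_add, add_mul, add_mul, mul_add, add_mul, add_mul,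
      hzero _ a.2 _ b.2, hzero _ b.2 _ a.2]
    simp only [one_mul, mul_one]
    abel
  · rw [hS] at hx
    have hn : ∀ n : ℕ, ((x ^ n : GL') : M →ₗ[k] M) = 1 + n • dev x := by
      intro n
      induction n with
      | zero => simp
      | succ n ih =>
        rw [pow_succ, Units.val_mul, ih, val_eq x]
        simp only [mul_add, add_mul, mul_one, one_mul, smul_mul_assoc, hzero x hx x hx, smul_zero,
          add_zero, succ_nsmul]
        abel
    apply Units.ext
    rw [hn, ← Nat.cast_smul_eq_nsmul k, ← hp, ringChar.Nat.cast_ringChar, zero_smul, add_zero]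
    rfl

end Cfsg.Agent.Quad
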